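import Cfsg.Agent.LD.F4.R1

set_option autoImplicit false

/-! Case I in `SL_4`: the linear facts used, abstractly. -/

namespace Cfsg.Agent.H1.L4

open Subgroup Cfsg.Agent.H8.M3 Cfsg.Agent.LD.F4

universe u

/-- `h` permutes `t`, `u`, `t u` cyclically -/
structure Cy {G : Type u} [Group G] (Y : G → G → Prop) (t u h : G) : Prop where
  f : F1 Y t u
  h1 : h * t * h⁻¹ = u
  h2 : h * u * h⁻¹ = t * u

/-- linear facts about frames -/
structure Lx (G : Type u) [Group G] (Y : G → G → Prop) : Prop where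
  fx : ∀ {t u h a}, Cy Y t u h → Y a t → Y a u → h * a = a * h → a = 1
  d1 : ∀ {t u h b} (S : Subgroup G), Cy Y t u h → Y b t → Y b u → b * b = u →
    (∀ g, g * t = t * g → Y g t) → Odd S.index → (∀ g ∈ S, g * t = t * g ∧ B4 t u (g * u * g⁻¹)) →
    ∃ M : Subgroup G, M ≠ ⊤ ∧ (∀ g, g * t = t * g → g ∈ M) ∧ h ∈ M
  d2 : ∀ {t u h o g}, Cy Y t u h → Y o t → Y o u → Odd (orderOf o) → o ≠ 1 → Y g t →
    B4 t u (g * u * g⁻¹)
  cx : ∀ {t u o}, F1 Y t u → Y o t → Y o u → Odd (orderOf o) → o ≠ 1 →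
    ∃ s, (s = t ∨ s = u ∨ s = t * u) ∧ ∀ g, g * o = o * g → g * s = s * g
  cy : ∀ {t u} (X : Subgroup G), F1 Y t u → (∀ x ∈ X, Y x t ∧ u * x * u⁻¹ = x⁻¹) →
    (∀ x ∈ X, ∀ y ∈ X, Y x y) → (∀ x ∈ X, x * x = 1 → x = 1 ∨ x = t) → IsCyclic X
  ct : ∀ (H : Subgroup G), Odd (Nat.card H) → ∀ {a x y : G}, a ≠ 1 → Odd (orderOf a) → x ∈ H → y ∈ H →
    a * x = x * a → a * y = y * a → x * y = y * x
  solv : ∀ H : Subgroup G, Odd (Nat.card H) → Group.IsSolvable H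
  sd : ∀ {t u h x} {T : Subgroup G}, Cy Y t u h → (∀ g, g * t = t * g → g * u = u * g → B4 t u g) →
    Odd T.index → IsPGroup 2 T → x ∈ T → (∀ g ∈ T, g ∈ zpowers x ∨ u * g ∈ zpowers x) → u ∈ T →
    t ∈ zpowers x → u * x * (u * x) = t → False

end Cfsg.Agent.H1.L4
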