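import Cfsg.Agent.H1.L4.Ix
import Cfsg.Agent.H4.H44.B
import Cfsg.Agent.H9.C2.G

set_option autoImplicit false
set_option linter.unusedVariables false
set_option linter.unusedSectionVars false

/-! Case I in `SL_4`: the cycling element and the patterns. -/

namespace Cfsg.Agent.H1.L4

open Subgroup Cfsg.Agent.H8.M3 Cfsg.Agent.LD.F4 Cfsg.Agent.H3 Cfsg.Agent.H7.BD

universe u

variable {G : Type u} [Group G] [Finite G] {Y N : G → G → Prop} {a b g h n s t u v w x y : G}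

/-- normalisers grow -/
theorem grow {H K Q : Subgroup G} (le : H ≤ K) (ev : Even (H.relIndex K)) (hQ : IsPGroup 2 Q)
    (hq : Q ≤ H) : ∃ (S : Subgroup G) (n : G), Q ≤ S ∧ S ≤ H ∧ n ∈ K ∧ n ∉ H ∧
      n ∈ normalizer (S : Set G) := by
  obtain ⟨S, hS, h1⟩ := exists_sylowIn_ge Nat.prime_two hQ hq
  obtain ⟨T, hT, h2⟩ := exists_sylowIn_ge Nat.prime_two hS.pgroup (hS.le.trans le)
  obtain ⟨y, y1, y2, y3, -⟩ := H3.ZD.lt_norm_sq hT.pgroup (h2.lt_of_ne (by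
    rintro rfl
    exact hT.not_dvd (ev.two_dvd.trans (relIndex_dvd_of_le_left K hS.le))))
  exact ⟨S, y, h1, hS.le, hT.le y1, fun e => y3 (hS.eq_of_le Nat.prime_two (Q := T ⊓ H)
    hT.pgroup.to_inf_left inf_le_right (le_inf h2 hS.le) ▸ ⟨y1, e⟩), y2⟩

theorem idx_cj (g t : G) : (Cen (g * t * g⁻¹)).index = (Cen t).index := by
  have a := (Cen t).card_mul_index
  rwa [← (Cen (g * t * g⁻¹)).card_mul_index, card_Cen_conj, Nat.mul_right_inj Nat.card_pos.ne',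
    eq_comm] at a

theorem odd_cm {m : ℕ} (hm : Odd m) (h1 : g ^ m * x = x * g ^ m) (h2 : g * g * x = x * (g * g)) :
    g * x = x * g := by
  obtain ⟨j, rfl⟩ := hm
  have h3 : g ^ (2 * j + 1) ∈ Cen x := mem_Cen.2 h1.symm
  rw [pow_succ, pow_mul, sq, mul_mem_cancel_left (pow_mem (mem_Cen.2 h2.symm) j)] at h3
  exact (mem_Cen.1 h3).symm

theorem pg_of {m : ℕ} (h : x ^ 2 ^ m = 1) : IsPGroup 2 (zpowers x) := by
  obtain ⟨j, -, e⟩ := (Nat.dvd_prime_pow Nat.prime_two).1 (orderOf_dvd_of_pow_eq_one h)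
  exact IsPGroup.of_card (n := j) (by rw [Nat.card_zpowers, e])

variable (A : Ax G Y N)
include A

theorem ci_cj (c : CaseI N t) (g : G) : CaseI N (g * t * g⁻¹) :=
  ⟨c.1.conj g, by rw [idx_cj]; exact c.2.1, fun s hs e =>
    c.2.2 (g⁻¹ * s * g⁻¹⁻¹) (by simpa [mul_assoc] using A.nj g⁻¹ hs) (cj_sq e _)⟩

theorem ci_y (c : CaseI N t) (v2 : v * v = 1) (e : v * t = t * v) : Y v t :=
  (A.di c.1.1 e).resolve_right fun h => c.2.2 v h v2

theorem om (f : F1 Y t u) (c : CaseI N t) (c' : CaseI N u) (v2 : v * v = 1) (h1 : v * t = t * v)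
    (h2 : v * u = u * v) : B4 t u v := A.a2 f v2 (ci_y A c v2 h1) (ci_y A c' v2 h2)

/-- the four-group -/
def Bs (f : F1 Y t u) : Subgroup G where
  carrier := {x | B4 t u x}
  one_mem' := Or.inl rfl
  mul_mem' := by
    have := A.fc f
    have k1 : t * u * u = t := by rw [mul_assoc, f.iu.1, mul_one]
    have k2 : t * u * t = u := by rw [this, mul_assoc, f.it.1, mul_one]
    have k3 : u * (t * u) = t := by rw [this, sq_cancel f.iu.1]
    rintro _ _ (rfl | rfl | rfl | rfl) (rfl | rfl | rfl | rfl) <;>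
      simp [B4, f.it.1, f.iu.1, A.f2 f, sq_cancel f.it.1, ← this, k1, k2, k3]
  inv_mem' := by
    rintro _ (rfl | rfl | rfl | rfl) <;> simp [B4, f.it.inv_eq, f.iu.inv_eq, ← A.fc f]

theorem b4sq (f : F1 Y t u) (h : B4 t u x) : x * x = 1 := by
  rcases h with rfl | rfl | rfl | rfl
  exacts [mul_one _, f.it.1, f.iu.1, A.f2 f]

theorem Bs2 (f : F1 Y t u) : IsPGroup 2 (Bs A f) := fun x =>
  ⟨1, Subtype.ext (by simpa [sq] using b4sq A f x.2)⟩

theorem BsC (f : F1 Y t u) : Bs A f ≤ Cen t ⊓ Cen u := fun x hx =>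
  ⟨mem_Cen.2 (B4.comm hx rfl (A.fc f)), mem_Cen.2 (B4.comm hx (A.fc f).symm rfl)⟩

theorem swp (f : F1 Y t u) (c : CaseI N t) (c' : CaseI N u) (ev : Even (Cen t ⊓ Cen u).index) :
    ∃ n, n * t = t * n ∧ n * u * n⁻¹ = t * u := by
  rw [← relIndex_mul_index (inf_le_left (a := Cen t) (b := Cen u)), Nat.even_mul] at ev
  obtain ⟨S, n, h1, h2, h3, h4, h5⟩ := grow inf_le_left
    (ev.resolve_right (Nat.not_even_iff_odd.2 c.2.1)) (Bs2 A f) (BsC A f)
  have := h2 (LD.F4.nm h5 (h1 (show B4 t u u by simp [B4])))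
  have h3' := (mem_Cen.1 h3).symm
  rcases om A f c c' (cj_sq f.iu.1 n) (mem_Cen.1 this.1).symm (mem_Cen.1 this.2).symm with e | e | e | e
  · exact absurd e (conj_ne_one f.iu.2)
  · exact absurd (by simpa using (cj_of h3').trans e.symm) f.ne
  · exact absurd ⟨h3, mem_Cen.2 (of_cj e).symm⟩ h4
  · exact ⟨n, h3', e⟩

theorem cyc (f : F1 Y t u) (c : CaseI N t) (e : g * t * g⁻¹ = u) : ∃ h, Cy Y t u h ∧
    (Odd (Cen t ⊓ Cen u).index ∨ ∃ n, n * t = t * n ∧ n * u * n⁻¹ = t * u) := by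
  have c' := e ▸ ci_cj A c g
  rcases Nat.even_or_odd (Cen t ⊓ Cen u).index with ev | od
  · obtain ⟨n, n1, n2⟩ := swp A f c c' ev
    obtain ⟨m, m1, m2⟩ := swp A (A.fs f) c' c (inf_comm (Cen t) _ ▸ ev)
    refine ⟨n * m, ⟨f, ?_, ?_⟩, Or.inr ⟨n, n1, n2⟩⟩
    · rw [show n * m * t * (n * m)⁻¹ = n * (m * t * m⁻¹) * n⁻¹ by group, m2, ← conj_mul, n2, cj_of n1,
        A.fc f, mul_assoc, f.it.1, mul_one]
    · rw [show n * m * u * (n * m)⁻¹ = n * (m * u * m⁻¹) * n⁻¹ by group, cj_of m1, n2]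
  obtain ⟨S, hS, h1⟩ := exists_sylowIn_ge Nat.prime_two (Bs2 A f) (BsC A f)
  have oS : Odd S.index := by
    rw [← relIndex_mul_index hS.le]
    exact (Nat.odd_iff.2 (Nat.two_dvd_ne_zero.1 hS.not_dvd)).mul od
  have hS' : SylowIn 2 S (Cen u) := ⟨hS.le.trans inf_le_right, hS.pgroup, fun d =>
    Nat.not_even_iff_odd.2 oS (even_iff_two_dvd.2 (d.trans (relIndex_dvd_index_of_le
      (hS.le.trans inf_le_right))))⟩
  obtain ⟨y, hy, h2⟩ := hS'.adjust Nat.prime_two (x := g) fun x hx =>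
    e ▸ (conj_mem_Cen g).2 (hS.le hx).1
  have e1 : y * g * t * (y * g)⁻¹ = u := by
    rw [show y * g * t * (y * g)⁻¹ = y * (g * t * g⁻¹) * y⁻¹ by group, e, cj_of (mem_Cen.1 hy).symm]
  generalize y * g = n at *
  have := hS.le (h2 u (h1 (show B4 t u u by simp [B4])))
  rcases om A f c c' (cj_sq f.iu.1 n) (mem_Cen.1 this.1).symm (mem_Cen.1 this.2).symm with e | e | e | e
  · exact absurd e (conj_ne_one f.iu.2)
  · have k : ∀ {t u : G}, n * t * n⁻¹ = u → n * u * n⁻¹ = t → n * n ∈ Cen t := fun {t u} a b =>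
      mem_Cen.2 (of_cj (by rw [show n * n * t * (n * n)⁻¹ = n * (n * t * n⁻¹) * n⁻¹ by group, a, b])).symm
    have := H4.H44.mem_of_sq od (mem_normalizer_fintype fun x hx =>
      ⟨e ▸ (conj_mem_Cen n).2 hx.2, e1 ▸ (conj_mem_Cen n).2 hx.1⟩) ⟨k e1 e, k e e1⟩
    exact absurd ((cj_of (mem_Cen.1 this.1).symm).symm.trans e1) f.ne
  · exact absurd (by simpa using e1.trans e.symm) f.ne
  · exact ⟨n, ⟨f, e1, e⟩, Or.inl od⟩

theorem Cy.h3 (c : Cy Y t u h) : h * (t * u) * h⁻¹ = t := by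
  rw [← conj_mul, c.h1, c.h2, A.fc c.f, sq_cancel c.f.iu.1]

theorem Cy.rot (c : Cy Y t u h) : Cy Y u (t * u) h :=
  ⟨c.h2 ▸ c.h1 ▸ A.fj c.f h, c.h2, by rw [c.h3 A, A.fc c.f, sq_cancel c.f.iu.1]⟩

theorem Cy.cube (c : Cy Y t u h) : h * h * h * t = t * (h * h * h) := cyc3' c.h1 c.h2 (c.h3 A)
where cyc3' {a b e : G} (h1 : h * a * h⁻¹ = b) (h2 : h * b * h⁻¹ = e) (h3 : h * e * h⁻¹ = a) :
    h * h * h * a = a * (h * h * h) := of_cj (by
  calc _ = h * (h * (h * a * h⁻¹) * h⁻¹) * h⁻¹ := by group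
    _ = a := by rw [h1, h2, h3])

theorem sqP (f : F1 Y t u) (c : CaseI N u) (h1 : Y g t) (h2 : N g u) : g * g = t :=
  (A.a4 f h1 h2).resolve_left (c.2.2 g h2)

theorem invP (f : F1 Y t u) (c : CaseI N u) (h1 : Y g t) (h2 : N g u) (a1 : Y a t) (a2 : Y a u) :
    g * a * g⁻¹ = a⁻¹ := by
  have := (sqP A f c (A.yy a1 h1) (A.yn a2 h2)).trans (sqP A f c h1 h2).symm
  calc _ = a⁻¹ * (a * g * (a * g)) * g⁻¹ * g⁻¹ := by group
    _ = _ := by rw [this]; group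

theorem nsw (f : F1 Y t u) (c : CaseI N u) (h1 : N n t) (h2 : n * u * n⁻¹ = t * u) : False := by
  have := sqP A f c (A.nn h1 h1) (A.sq f h1 h2)
  exact f.it.2 (this.symm.trans (A.a3 f.it.1 h1).1)

theorem noP (L : Lx G Y) (c : Cy Y t u h) (ct : CaseI N t)
    (o : Odd (Cen t ⊓ Cen u).index ∨ ∃ n, n * t = t * n ∧ n * u * n⁻¹ = t * u)
    (h1 : Y g t) (h2 : N g u) : False := by
  have f := c.f
  have cu := c.h1 ▸ ci_cj A ct h
  obtain ⟨g2, e2⟩ : ∃ g2, h * g * h⁻¹ = g2 := ⟨_, rfl⟩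
  have k2 : Y g2 u := e2 ▸ c.h1 ▸ A.yj h h1
  have k0 : N g2 (t * u) := e2 ▸ c.h2 ▸ A.nj h h2
  have k1 : N g2 t := (A.di f.it.1 (by
    have := mul_mem (mem_Cen.2 (A.nc k0)) (mem_Cen.2 (A.yc k2))
    rw [mul_assoc, f.iu.1, mul_one] at this
    exact mem_Cen.1 this)).resolve_left fun e => A.nb (A.yy' e k2) k0
  have s1 := sqP A f cu h1 h2
  have s2 := sqP A (A.fs f) ct k2 k1
  have m1 := A.nn' (A.yn h1 k1) (A.ny h2 k2)
  have s3 := sqP A (A.fm' f) cu m1 (A.ny h2 k2)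
  have cm : g * g2 = g2 * g := by
    rw [← s1, ← s2] at s3
    simp only [mul_assoc, mul_right_inj] at s3
    simpa only [← mul_assoc, mul_left_inj] using s3.symm
  have AB : ∀ a, Y a t → Y a u → B4 t u a := fun a a1 a2 => A.a2 f (by
    have := invP A (A.fm' f) cu m1 (A.ny h2 k2) (A.yy' a1 a2) a2
    rw [show g * g2 * a * (g * g2)⁻¹ = g * (g2 * a * g2⁻¹) * g⁻¹ by group, invP A (A.fs f) ct k2 k1 a2 a1,
      invP A f cu h1 h2 (A.yi a1) (A.yi a2), inv_inv] at this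
    exact mul_eq_one_iff_eq_inv.2 this) a1 a2
  have gm : g ∈ closure {g, g2} := subset_closure (by simp)
  have gm2 : g2 ∈ closure {g, g2} := subset_closure (by simp)
  have hC : ∀ x, x * t = t * x → x * u = u * x → x ∈ closure {g, g2} := fun x x1 x2 => by
    have B := fun a a1 a2 => (AB a a1 a2).mem (s1 ▸ mul_mem gm gm) (s2 ▸ mul_mem gm2 gm2)
    rcases A.di f.it.1 x1 with a | a <;> rcases A.di f.iu.1 x2 with b | b
    · exact B x a b
    · exact (mul_mem_cancel_right gm).1 (B _ (A.yy a h1) (A.nn b h2))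
    · exact (mul_mem_cancel_right gm2).1 (B _ (A.nn a k1) (A.yy b k2))
    · exact (mul_mem_cancel_right (mul_mem gm gm2)).1 (B _ (A.nn a (A.yn h1 k1)) (A.nn b (A.ny h2 k2)))
  have cg : ∀ x, x * t = t * x → x * u = u * x → g * x = x * g := fun x x1 x2 =>
    mem_Cen.1 ((closure_le (Cen g)).2 (by
      rintro _ (rfl | rfl)
      exacts [self_mem_Cen _, mem_Cen.2 cm]) (hC x x1 x2))
  obtain ⟨g3, e3⟩ : ∃ g3, h * g2 * h⁻¹ = g3 := ⟨_, rfl⟩
  have l0 : Y g3 (t * u) := e3 ▸ c.h2 ▸ A.yj h k2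
  have l1 : N g3 t := e3 ▸ c.h3 A ▸ A.nj h k0
  have l2 : N g3 u := by simpa [sq_cancel f.it.1] using A.ny' l1 l0
  have e4 : h * g3 * h⁻¹ = g := by
    rw [← e3, ← e2, show h * (h * (h * g * h⁻¹) * h⁻¹) * h⁻¹ = h * h * h * g * (h * h * h)⁻¹ by group,
      cj_of (cg _ (c.cube A) ((c.rot A).cube A)).symm]
  have e5 := L.fx c (A.nn (A.yn h1 k1) l1) (A.nn (A.ny h2 k2) l2) (of_cj (by
    rw [← conj_mul, ← conj_mul, e2, e3, e4, mul_assoc, ← cg _ (A.nc l1) (A.nc l2), ← mul_assoc, ← cm]))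
  have := A.sn.simple
  refine H4.H44.h44 (g1 := g) (g2 := g2) (h := h) cm ?_ (s1 ▸ f.it.2) (s1 ▸ s2 ▸ f.ne) ?_ e2
    (e3.trans (eq_inv_of_mul_eq_one_right e5)) fun x x1 x2 => hC x (s1 ▸ x1) (s2 ▸ x2)
  · rw [show g ^ 4 = g * g * (g * g) by simp [pow_succ, mul_assoc], s1, f.it.1]
  rcases o with o | ⟨n, n1, n2⟩
  · exact o.of_dvd_nat (index_dvd_of_le fun x hx => hC x (mem_Cen.1 hx.1).symm (mem_Cen.1 hx.2).symm)
  rcases A.di f.it.1 n1 with a | a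
  · refine (nsw A f cu (A.yn a k1) ?_).elim
    rw [show n * g2 * u * (n * g2)⁻¹ = n * (g2 * u * g2⁻¹) * n⁻¹ by group, cj_of (A.yc k2), n2]
  · exact (nsw A f cu a n2).elim

omit A in
/-- the diagonal case -/
structure A1 (Y N : G → G → Prop) (t u h : G) : Prop extends Cy Y t u h where
  ct : CaseI N t
  yt : ∀ g, g * t = t * g → g * u = u * g → Y g t
  yu : ∀ g, g * t = t * g → g * u = u * g → Y g u

theorem a1 (L : Lx G Y) (f : F1 Y t u) (c : CaseI N t) (e : g * t * g⁻¹ = u) : ∃ h, A1 Y N t u h := by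
  obtain ⟨h, d, o⟩ := cyc A f c e
  have k := fun g => noP A L (g := g) d c o
  have k2 : ∀ g, N g t → Y g u → False := fun g a b => by
    refine k (h * (h * g * h⁻¹) * h⁻¹) ?_ ?_
    · exact d.h3 A ▸ d.h2 ▸ A.yj h (A.yj h b)
    · have := A.nj h (A.nj h (A.ny' a b))
      rwa [d.h3 A, d.h1] at this
  have k3 : ∀ g, N g t → N g u → False := fun g a b =>
    k (h * g * h⁻¹) (d.h3 A ▸ A.yj h (A.nn' a b)) (d.h1 ▸ A.nj h a)
  refine ⟨h, d, c, fun g a b => ?_, fun g a b => ?_⟩ <;>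
    rcases A.di f.it.1 a with a | a <;> rcases A.di f.iu.1 b with b | b <;>
    first | assumption | exact (k g a b).elim | exact (k2 g a b).elim | exact (k3 g a b).elim

end Cfsg.Agent.H1.L4
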